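import Cfsg.Agent.Lib.TC.Enc

namespace Cfsg.Agent.Lib.CosetCert.D.RuT.Lv2.CT

open Cfsg.Agent.Lib.TC.Enc

set_option maxRecDepth 100000

/-- The chunks of the certificate. -/
noncomputable def tree : Tr Nat :=
  (Tr.leaf (nat_lit 0xe0a3129e2605399ccfa829ab4985014d1643860a0ec8d22050654478829894544014c0621800a064802005021020))

end Cfsg.Agent.Lib.CosetCert.D.RuT.Lv2.CT
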