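import Cfsg.Agent.Lib.CosetCert.D.RuT.Lv2.Tab

namespace Cfsg.Agent.Lib.CosetCert.D.RuT.Lv2.R0

open Cfsg.Agent.Lib.CosetCert Cfsg.Agent.Lib.TC.Core Cfsg.Agent.Lib.TC.Enc Cfsg.Agent.Lib.TC.Pres Cfsg.Agent.Lib.TC.Perm Cfsg.Agent.Lib.TC.Main

set_option maxRecDepth 100000

open Cfsg.Agent.Lib.CosetCert.D.RuT.Lv2.Tab Cfsg.Agent.Lib.CosetCert.D.RuT.Tbl in
theorem ok : allR (guard 4060 (wordFixes F2 rels)) 12 0 = true := by decide +kernel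

end Cfsg.Agent.Lib.CosetCert.D.RuT.Lv2.R0
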